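import Mathlib
import Cfsg.Agent.ODDC.PF14.NonConj
import Cfsg.Agent.ODDC.PF14.Excl

/-! Peterfalvi (14.7), (14.12)-(14.16). -/

set_option autoImplicit false
set_option linter.unusedSectionVars false
open Cfsg CL.MSS CL.BG
open scoped ComplexConjugate Classical

namespace CL.PF

namespace S14L

theorem sq_lt_three_pow {p : ℕ} (hp : 7 ≤ p) : p ^ 2 < 3 ^ (p - 3) := by
  induction p, hp using Nat.le_induction with
  | base => norm_num
  | succ n hn ih => rw [show n + 1 - 3 = n - 3 + 1 by omega, pow_succ 3]; nlinarith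

theorem pow_le_geom {p n : ℕ} (hp : p.Prime) (hn : 0 < n) : p ^ (n - 1) ≤ (p ^ n - 1) / (p - 1) := by
  rw [S13.geom_eq_sum hp]
  exact Finset.single_le_sum (f := fun i => p ^ i) (fun _ _ => Nat.zero_le _)
    (Finset.mem_range.2 (by omega))

theorem geom_modEq_self {p n : ℕ} (hp : p.Prime) (hn : 0 < n) :
    (p ^ n - 1) / (p - 1) ≡ 1 [MOD p] := by
  obtain ⟨n, rfl⟩ := Nat.exists_eq_succ_of_ne_zero hn.ne'
  rw [S13.geom_eq_sum hp, Finset.sum_range_succ', pow_zero]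
  exact (Nat.modEq_zero_iff_dvd.2 (Finset.dvd_sum fun i _ => dvd_pow_self p i.succ_ne_zero)).add_right 1

variable {p q : ℕ} (hp : p.Prime) (hq : q.Prime) (h3 : 3 ≤ q) (hlt : q < p) (hpo : Odd p)
  (hqo : Odd q)
include hp hq h3 hlt hpo hqo

theorem case_b (h : (q ^ p - 1) / (q - 1) - 1 ≤ (p * q - 1) * (p * q)) : q = 3 ∧ p = 5 := by
  have h1 := pow_le_geom hq hp.pos
  have h5 : 5 ≤ p := by obtain ⟨a, rfl⟩ := hpo; obtain ⟨b, rfl⟩ := hqo; omega
  by_cases h7 : 7 ≤ p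
  · exfalso
    have h2 := (sq_lt_three_pow h7).trans_le (Nat.pow_le_pow_left h3 _)
    rw [show p - 1 = p - 3 + 2 by omega, pow_add] at h1
    have h4 : 1 ≤ p * q := Nat.mul_pos hp.pos hq.pos
    obtain ⟨k, hk⟩ := Nat.exists_eq_add_of_le h4
    rw [hk, Nat.add_sub_cancel_left] at h
    have : p ^ 2 * q ^ 2 = (1 + k) ^ 2 := by rw [← hk]; ring
    have h6 : (p ^ 2 + 1) * q ^ 2 ≤ q ^ (p - 3) * q ^ 2 := Nat.mul_le_mul_right _ h2
    have : 9 ≤ q ^ 2 := by nlinarith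
    have : k * (1 + k) + 1 ≥ (1 + k) ^ 2 + 9 := by nlinarith [Nat.sub_le_iff_le_add.1 h]
    nlinarith
  · obtain ⟨a, rfl⟩ := hpo; obtain ⟨b, rfl⟩ := hqo; omega

/-- the arithmetic of (14.15) -/
theorem full_of {u x : ℕ} (hu : u * q = (p ^ q - 1) / (p - 1)) (hpq : p ≡ 1 [MOD q])
    (huq : u ≡ 1 [MOD q]) (hh : u * x ≡ 1 [MOD p * q]) (hx : Odd x) :
    ¬ u * x - 1 ≤ (p * q - 1) * (p * q) := by
  intro hle
  have hxq : x ≡ 1 [MOD q] := by
    have := (huq.mul_right x).symm.trans (hh.of_mul_left p)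
    rwa [one_mul] at this
  have hxp : x ≡ q [MOD p] := by
    have h1 : u * q ≡ 1 [MOD p] := hu ▸ geom_modEq_self hp hq.pos
    calc x ≡ u * q * x [MOD p] := by simpa using (h1.mul_right x).symm
      _ = u * x * q := by ring
      _ ≡ q [MOD p] := by simpa using (hh.of_mul_right q).mul_right q
  obtain ⟨n, rfl⟩ : ∃ n, x = q + p * n := by
    refine ⟨x / p, ?_⟩
    have := Nat.mod_add_div x p
    rw [hxp, Nat.mod_eq_of_lt hlt] at this
    exact this.symm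
  have hn : n ≡ 1 [MOD q] := by
    have h1 : q + p * n ≡ 0 + 1 * n [MOD q] :=
      (Nat.modEq_zero_iff_dvd.2 dvd_rfl).add (hpq.mul_right n)
    simpa using h1.symm.trans hxq
  have hn1 : q + 1 ≤ n := by
    by_contra hc
    have : n = 1 := by
      rcases Nat.lt_or_ge n q with h | h
      · rw [Nat.ModEq, Nat.mod_eq_of_lt h, Nat.mod_eq_of_lt hq.one_lt] at hn; exact hn
      · obtain rfl : n = q := by omega
        rw [Nat.ModEq, Nat.mod_self, Nat.mod_eq_of_lt hq.one_lt] at hn; omega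
    subst this
    rw [mul_one] at hx
    exact Nat.not_even_iff_odd.2 hx (hqo.add_odd hpo)
  have h1 := pow_le_geom hp hq.pos
  rw [← hu] at h1
  have h4 : 1 ≤ p * q := Nat.mul_pos hp.pos hq.pos
  obtain ⟨k, hk⟩ := Nat.exists_eq_add_of_le h4
  rw [hk, Nat.add_sub_cancel_left] at hle
  have h5 : u * (q + p * n) ≤ (p * q) ^ 2 := by rw [hk]; nlinarith [Nat.sub_le_iff_le_add.1 hle]
  have h6 : u * q * p ≤ u * (q + p * n) := by
    rw [mul_assoc]; exact Nat.mul_le_mul_left _ (by nlinarith)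
  by_cases hq3 : q = 3
  · subst hq3
    have h7 : p < 9 := by
      by_contra hc
      norm_num at h1
      have a : p ^ 2 * p ≤ u * 3 * p := Nat.mul_le_mul_right _ h1
      have b : p ^ 2 * 9 ≤ p ^ 2 * p := Nat.mul_le_mul_left _ (by omega)
      have c : u * (3 + p * n) ≥ u * 3 + u * p * 4 := by nlinarith [Nat.mul_le_mul_left (u * p) hn1]
      nlinarith [hp.pos]
    obtain rfl : p = 7 := by
      obtain ⟨a, rfl⟩ := hpo
      rw [Nat.ModEq] at hpq; omega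
    norm_num at hu
    obtain rfl : u = 19 := by omega
    omega
  · have h7 : 5 ≤ q := by obtain ⟨b, rfl⟩ := hqo; omega
    have h8 : p ^ 4 ≤ p ^ (q - 1) := Nat.pow_le_pow_right hp.pos (by omega)
    have h9 : (p * q) ^ 2 < p ^ 4 := by
      rw [show p ^ 4 = (p * p) ^ 2 by ring]
      exact Nat.pow_lt_pow_left (Nat.mul_lt_mul_of_pos_left hlt hp.pos) two_ne_zero
    nlinarith [hp.pos]

/-- the arithmetic of (14.16) -/
theorem two_mul_le {u x : ℕ} (hu : u = (p ^ q - 1) / (p - 1)) (huq : u ≡ 1 [MOD q])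
    (hh : u * x ≡ 1 [MOD p * q]) (hx : Odd x) (hx1 : x ≠ 1) : 2 * (p * q) + 1 ≤ x := by
  have h1 : u ≡ 1 [MOD p * q] := (Nat.modEq_and_modEq_iff_modEq_mul
    ((Nat.coprime_primes hp hq).2 hlt.ne')).1 ⟨hu ▸ geom_modEq_self hp hq.pos, huq⟩
  have h2 : x ≡ 1 [MOD p * q] := by simpa using (h1.mul_right x).symm.trans hh
  obtain ⟨n, hn⟩ := (Nat.modEq_iff_dvd' hx.pos).1 h2.symm
  have hx0 := hx.pos
  have h4 : Even (p * q * n) := hn ▸ Nat.Odd.sub_odd hx odd_one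
  have h5 : Even n := (Nat.even_mul.1 h4).resolve_left (Nat.not_even_iff_odd.2 (hpo.mul hqo))
  have h6 : 2 ≤ n := by
    obtain ⟨m, rfl⟩ := h5
    rcases m with _ | m
    · simp at hn; omega
    · omega
  nlinarith [Nat.sub_add_cancel hx0]

theorem not_le_of_full {u x : ℕ} (hu : u = (p ^ q - 1) / (p - 1)) (hx : 2 * (p * q) + 1 ≤ x) :
    ¬ u * x - 1 ≤ (p * q - 1) * (p * q) := by
  intro hle
  have h1 := pow_le_geom hp hq.pos
  rw [← hu] at h1
  have h2 : p ^ 2 ≤ p ^ (q - 1) := Nat.pow_le_pow_right hp.pos (by omega)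
  have h4 : 1 ≤ p * q := Nat.mul_pos hp.pos hq.pos
  have h5 : p * q ≤ u := by nlinarith
  obtain ⟨k, hk⟩ := Nat.exists_eq_add_of_le h4
  rw [hk] at hle hx h5
  rw [Nat.add_sub_cancel_left] at hle
  nlinarith [Nat.sub_le_iff_le_add.1 hle, Nat.mul_le_mul h5 hx]

end S14L

variable {G : Type*} [Group G] [Finite G]

theorem nat_le_of_div_le {a e : ℕ} (ha : 0 < a) (he : 0 < e) (h : ((a : ℝ) - 1) / e ≤ (e : ℝ) - 1) :
    a - 1 ≤ (e - 1) * e := by
  rw [div_le_iff₀ (by exact_mod_cast he)] at h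
  have : ((a - 1 : ℕ) : ℝ) ≤ ((e - 1) * e : ℕ) := by push_cast [Nat.cast_pred ha, Nat.cast_pred he]; exact h
  exact_mod_cast this

namespace FTPair

variable {S T U V W W1 W2 : Subgroup G} (h : FTPair S T U V W W1 W2) (hqp : #|W1| < #|W2|)
  (hgS : PtGalois S U) {L : Subgroup G} (hL : IsCoatom L) (hNL : 𝐍(U) ≤ L) {y : G}
  (hy : y ∈ fittingHallOf T) (sd : SDProd (fittingHallOf L) (W1 ⊔ y •ᶜ W2) L)
include h hqp hgS hL hNL hy sd

/-- (14.7) -/
theorem not_norm_U : ¬ y •ᶜ W2 ≤ 𝐍(U) := fun hN => by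
  obtain ⟨-, hF, hUH, -⟩ := h.typeII_support_facts (h.hS.typeII_of_lt hqp) hL hNL
  have e := h.hS.card_Galois_compl hgS
  split_ifs at e with hpq
  · have hp := h.hS.primes.2
    have h1 : #|y •ᶜ W2| ∣ #|U| - 1 := by
      have := (frobKer_of_frobeniusIn ⟨sdprod_sup hN (eq_bot_iff.2 (sd.inf_eq_bot ▸
        inf_le_inf hUH le_sup_right)), h.hS.U_ne_bot, (h.hS.cj y).ntW2, fun x hx h1 =>
          eq_bot_iff.2 ((hF.frobeniusIn sd.1).2.2.2 x (Subgroup.mem_sup_right hx) h1 ▸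
            inf_le_inf_right _ hUH)⟩).relIndex_dvd
      rwa [(sdprod_sup hN (eq_bot_iff.2 (sd.inf_eq_bot ▸
        inf_le_inf hUH le_sup_right))).relIndex_left] at this
    rw [card_cj] at h1
    have h2 : #|U| * #|W1| ≡ 1 [MOD #|W2|] := by
      rw [e, Nat.div_mul_cancel (S13.dvd_geom hp hpq)]
      exact S14L.geom_modEq_self hp Nat.card_pos
    have h3 := ((((Nat.modEq_iff_dvd' Nat.card_pos).2 h1).mul_right #|W1|).trans h2)
    rw [Nat.succ_eq_add_one, zero_add, one_mul, Nat.ModEq, Nat.mod_eq_of_lt hqp, Nat.mod_eq_of_lt hp.one_lt] at h3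
    exact h.hS.primes.1.one_lt.ne' h3
  · exact h.exclusion hqp hgS e hy hN

theorem last (hgT : PtGalois T V) (hv : #|V| = (#|W1| ^ #|W2| - 1) / (#|W1| - 1))
    (t2 : IsOfTypeII T) {M : Subgroup G} (hM : IsCoatom M) (hNM : 𝐍(V) ≤ M)
    (hK : fittingHallOf M = V) (eM : (fittingHallOf M).relIndex M = #|W2| * #|W1|) : False := by
  have hG := h.hS.hG
  have s2 := h.hS.typeII_of_lt hqp
  obtain ⟨tL, hF, hUH, -⟩ := h.typeII_support_facts s2 hL hNL
  obtain ⟨tM, hFM, -, -⟩ := h.symm.typeII_support_facts t2 hM hNM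
  have h7 := h.not_norm_U hqp hgS hL hNL hy sd
  have hyL : y •ᶜ W2 ≤ 𝐍(fittingHallOf L) := le_sup_right.trans sd.norm
  have hnc : ∀ g : G, L ≠ g •ᶜ M := fun g e => by
    have hc : IsCyclic (fittingHallOf L) := by
      rw [e, FcoreJ, isCyclic_cj, hK]; exact (h.hT.galois_field hgT).2.1
    exact h7 (hyL.trans (norm_le_norm_of_cyclic hc hUH))
  obtain ⟨ν, φ, cL⟩ := FT_Frobenius_indSubLin hG hL hF
  obtain ⟨ν', ψ, cM⟩ := FT_Frobenius_indSubLin hG hM hFM
  have eL : (fittingHallOf L).relIndex L = #|W2| * #|W1| := by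
    rw [sd.relIndex_left, h.card_sup_cj hy]
  obtain ⟨hq, hp⟩ := h.hS.primes
  have h3 := h.hS.three_le1
  have hpo := h.hS.odd W2
  have hqo := h.hS.odd W1
  have hpq : 0 < #|W2| * #|W1| := Nat.mul_pos hp.pos hq.pos
  obtain ⟨x, hx⟩ := Subgroup.card_dvd_of_le hUH
  have hxo : Odd x := (Nat.odd_mul.1 (hx ▸ h.hS.odd _)).2
  have hh : #|U| * x ≡ 1 [MOD #|W2| * #|W1|] := by
    rw [← hx, ← eL]; exact ((Nat.modEq_iff_dvd' Nat.card_pos).2 hF.relIndex_dvd).symm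
  have huq : #|U| ≡ 1 [MOD #|W1|] := ((Nat.modEq_iff_dvd' Nat.card_pos).2 h.hS.q_dvd_cardU_pred).symm
  have h14 : #|U| * x - 1 ≤ (#|W2| * #|W1| - 1) * (#|W2| * #|W1|) ∨
      (ip ⊤ (betaL (fittingHallOf L) L (supportR L) φ) (ν' ψ) ≠ 0 ∧ #|W1| = 3 ∧ #|W2| = 5) := by
    refine (FTtype1_nonorthogonal hG hM hL tM tL hnc cM cL).imp (fun ha => ?_) fun ha => ⟨ha, ?_⟩
    · have := coherent_FTtype1_core_ltr hG hL hM tL tM (not_conj_symm hnc) cL cM ha
      rw [eL, eM] at this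
      exact hx ▸ nat_le_of_div_le Nat.card_pos hpq this
    · have := coherent_FTtype1_core_ltr hG hM hL tM tL hnc cM cL ha
      rw [eL, eM, hK] at this
      exact S14L.case_b hp hq h3 hqp hpo hqo (hv ▸ nat_le_of_div_le Nat.card_pos hpq this)
  have hu : #|U| = (#|W2| ^ #|W1| - 1) / (#|W2| - 1) := by
    have e := h.hS.card_Galois_compl hgS
    split_ifs at e with hc
    · rcases h14 with h14 | ⟨-, e1, e2⟩
      · exact absurd h14 (S14L.full_of hp hq h3 hqp hpo hqo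
          (by rw [e, Nat.div_mul_cancel (S13.dvd_geom hp hc)]) hc huq hh hxo)
      · rw [e1, e2] at hc; exact absurd hc (by decide)
    · exact e
  have hx2 := S14L.two_mul_le hp hq h3 hqp hpo hqo hu huq hh hxo fun e => h7 (by
    rw [e, mul_one] at hx
    rwa [Subgroup.eq_of_le_of_card_ge hUH hx.le])
  obtain ⟨ha, e1, e2⟩ := h14.resolve_left (S14L.not_le_of_full hp hq h3 hqp hpo hqo hu hx2)
  rw [e1, e2] at hu hv hx2 eL
  norm_num at hu hv hx2 eL
  have hxr : (31 : ℝ) ≤ x := by exact_mod_cast hx2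
  obtain ⟨-, ε, -, χ, hχ, e⟩ := h.support_coherence s2 hL hNL cL
    (by rw [hx, hu, e1, eL]; push_cast; linarith) (by rw [hx, hu, hv, e2, eL]; push_cast; linarith)
  have ho := coherent_FTtype1_ortho hG hL hM tL tM (not_conj_symm hnc) cL cM
  apply ha
  rw [e, ip_sub_left, show ip ⊤ χ (ν' ψ) = 0 by
    rcases hχ with rfl | rfl
    · exact ho φ cL.mem ψ cM.mem
    · rw [ip_neg_left, ho _ (seqIndD.star_mem cL.mem) ψ cM.mem, neg_zero]]
  simp [ip_sum_left, ip_smul_left,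
    fun i j => (ip_eq_zero_comm _).1 (h.hS.typeI_ortho_eta hM tM cM cM.mem i j)]

end FTPair

end CL.PF
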